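import Mathlib
import Cfsg.Agent.Lib.Helper5.SUAsch.Defs2
import Cfsg.Agent.Lib.Helper5.SUAsch.Bridge
import Cfsg.Agent.Lib.Helper5.SURows.Geo
import Cfsg.Agent.Lib.Helper55.Asch.DecCore

set_option autoImplicit false
set_option linter.unusedSectionVars false
set_option linter.unusedVariables false

/-! # SU rows, piece D1b: `SU_n(q)` stabilises no decomposition -/

namespace Cfsg.Agent.Lib.Helper47.SURows

open Cfsg Cfsg.Geo Matrix Cfsg.Agent.Lib.Helper5.SUAsch Cfsg.Agent.Lib.Helper5
  Cfsg.Agent.Lib.Helper13 Cfsg.Agent.Lib.Helper94 Cfsg.Agent.Lib.Helper94.U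
  Cfsg.Agent.Lib.Helper5.SURows
open scoped Kronecker MatrixGroups

variable {F : Type*} [Field F] {n q : ℕ}

/-- elements of the stabiliser of a decomposition inducing an even permutation -/
def evenStab {t : ℕ} (D : Fin t → Submodule F (Fin n → F)) : Subgroup (GL (Fin n) F) where
  carrier := {g | ∃ σ : Equiv.Perm (Fin t), Equiv.Perm.sign σ = 1 ∧
    ∀ i, (D i).map (Matrix.toLin' (g : Matrix (Fin n) (Fin n) F)) = D (σ i)}
  mul_mem' {a b} ha hb := by
    obtain ⟨σ, hs, hσ⟩ := ha
    obtain ⟨τ, ht, hτ⟩ := hb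
    refine ⟨τ.trans σ, by rw [Equiv.Perm.sign_trans, hs, ht, one_mul], fun i => ?_⟩
    rw [Units.val_mul, Matrix.toLin'_mul, Submodule.map_comp, hτ, hσ, Equiv.trans_apply]
  one_mem' := ⟨1, by simp, fun i => by simp⟩
  inv_mem' {a} ha := by
    obtain ⟨σ, hs, hσ⟩ := ha
    refine ⟨σ.symm, by rw [Equiv.Perm.sign_symm, hs], fun i => ?_⟩
    have h := hσ (σ.symm i)
    rw [Equiv.apply_symm_apply] at h
    rw [← h, ← Submodule.map_comp, ← Matrix.toLin'_mul, ← Units.val_mul, inv_mul_cancel,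
      Units.val_one, Matrix.toLin'_one, Submodule.map_id]

theorem commutator_stab_le_evenStab {t : ℕ} (D : Fin t → Submodule F (Fin n → F)) :
    ⁅decompositionStabilizer D, decompositionStabilizer D⁆ ≤ evenStab D := by
  rw [Subgroup.commutator_le]
  rintro g ⟨σ, hσ⟩ h ⟨ρ, hρ⟩
  have hinv : ∀ (a : GL (Fin n) F) (σ : Equiv.Perm (Fin t)),
      (∀ i, (D i).map (Matrix.toLin' (a : Matrix (Fin n) (Fin n) F)) = D (σ i)) →
      ∀ i, (D i).map (Matrix.toLin' ((a⁻¹ : GL (Fin n) F) : Matrix (Fin n) (Fin n) F))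
        = D (σ.symm i) := by
    intro a σ hσ i
    have h := hσ (σ.symm i)
    rw [Equiv.apply_symm_apply] at h
    rw [← h, ← Submodule.map_comp, ← Matrix.toLin'_mul, ← Units.val_mul, inv_mul_cancel,
      Units.val_one, Matrix.toLin'_one, Submodule.map_id]
  refine ⟨σ * ρ * σ⁻¹ * ρ⁻¹, ?_, fun i => ?_⟩
  · rw [map_mul, map_mul, map_mul, map_inv, map_inv,
      mul_comm (Equiv.Perm.sign σ) (Equiv.Perm.sign ρ), mul_assoc (Equiv.Perm.sign ρ),
      mul_inv_cancel, mul_one, mul_inv_cancel]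
  · rw [commutatorElement_def, Units.val_mul, Units.val_mul, Units.val_mul, Matrix.toLin'_mul,
      Matrix.toLin'_mul, Matrix.toLin'_mul, Submodule.map_comp, Submodule.map_comp,
      Submodule.map_comp, hinv h ρ hρ, hinv g σ hσ, hρ, hσ]
    rfl

/-- a transvection-like element stabilising a decomposition and inducing an even permutation
fixes every summand -/
theorem perm_eq_one_of_tv {t m : ℕ} {D : Fin t → Submodule F (Fin n → F)}
    (hD : IsMDecomposition m D) (g : Matrix (Fin n) (Fin n) F) (φ : (Fin n → F) → F)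
    (a : Fin n → F) (hg : ∀ x, g *ᵥ x = x + φ x • a) (σ : Equiv.Perm (Fin t))
    (hs : Equiv.Perm.sign σ = 1) (hσ : ∀ i, (D i).map (Matrix.toLin' g) = D (σ i)) : σ = 1 := by
  classical
  obtain ⟨Φ, hΦ⟩ := Cfsg.Agent.Lib.Helper55.Asch.exists_coord hD
  have hmap : ∀ i x, x ∈ D i → g *ᵥ x ∈ D (σ i) := by
    intro i x hx
    rw [← hσ i]
    exact ⟨x, hx, by simp [Matrix.toLin'_apply]⟩
  have key : ∀ i, σ i ≠ i → Φ a i ≠ 0 ∧ ∀ l, l ≠ i → l ≠ σ i → Φ a l = 0 := by
    intro i hi
    have hne : D i ≠ ⊥ := by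
      intro h
      have h1 := hD.finrank_eq i
      rw [h, finrank_bot] at h1
      exact absurd hD.pos (by omega)
    obtain ⟨x, hx, hx0⟩ := Submodule.exists_mem_ne_zero_of_ne_bot hne
    have hxi : Φ x i ≠ 0 := by
      intro h
      apply hx0
      have : Φ x = 0 := by
        funext j
        by_cases hj : j = i
        · rw [hj, h]; rfl
        · exact (hΦ i x).1 hx j hj
      simpa using this
    have hgx := (hΦ _ _).1 (hmap i x hx)
    have hexp : ∀ j, Φ (g *ᵥ x) j = Φ x j + φ x • Φ a j := by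
      intro j
      rw [hg, map_add, map_smul]
      rfl
    have h1 := hgx i (Ne.symm hi)
    rw [hexp] at h1
    have hφ : φ x ≠ 0 := by
      intro h
      rw [h, zero_smul, add_zero] at h1
      exact hxi h1
    refine ⟨?_, fun l hl hl' => ?_⟩
    · intro h
      rw [h, smul_zero, add_zero] at h1
      exact hxi h1
    · have h2 := hgx l hl'
      rw [hexp, (hΦ i x).1 hx l hl, zero_add] at h2
      exact (smul_eq_zero.1 h2).resolve_left hφ
  by_contra hne
  obtain ⟨i, hi⟩ : ∃ i, σ i ≠ i := by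
    by_contra hcon
    push Not at hcon
    exact hne (Equiv.ext hcon)
  have hM : ∀ l, σ l ≠ l → l = i ∨ l = σ i := by
    intro l hl
    by_contra hcon
    push Not at hcon
    exact (key l hl).1 ((key i hi).2 l hcon.1 hcon.2)
  have hssi : σ (σ i) = i := by
    have h1 : σ (σ i) ≠ σ i := fun h => hi (σ.injective h)
    have h2 : σ (σ (σ i)) ≠ σ (σ i) := fun h => h1 (σ.injective h)
    rcases hM _ h2 with h | h
    · exact h
    · exact absurd h h1
  have hswap : σ = Equiv.swap i (σ i) := by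
    apply Equiv.ext
    intro l
    by_cases h1 : l = i
    · rw [h1, Equiv.swap_apply_left]
    · by_cases h2 : l = σ i
      · rw [h2, Equiv.swap_apply_right, hssi]
      · rw [Equiv.swap_apply_of_ne_of_ne h1 h2]
        by_contra h3
        rcases hM l h3 with h | h
        · exact h1 h
        · exact h2 h
  rw [hswap, Equiv.Perm.sign_swap (Ne.symm hi)] at hs
  exact absurd hs (by decide)

/-- D1b -/
theorem su_not_le_decomp [Fintype F] (hF : Fintype.card F = q ^ 2) (hn : 3 ≤ n)
    (h32 : ¬ (n = 3 ∧ q = 2)) {t m : ℕ} (D : Fin t → Submodule F (Fin n → F))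
    (hD : IsMDecomposition m D) : ¬ SUg n F q ≤ decompositionStabilizer D := by
  intro hle
  have hev : SUg n F q ≤ evenStab D := by
    have h1 := (Subgroup.commutator_mono hle hle).trans (commutator_stab_le_evenStab D)
    rwa [SUg_perfect hF hn h32] at h1
  obtain ⟨c, hc0, hc⟩ := exists_skew_q hF
  have ht := hD.two_le
  let j0 : Fin t := ⟨0, by omega⟩
  let j1 : Fin t := ⟨1, by omega⟩
  have hj : j0 ≠ j1 := by simp [j0, j1, Fin.ext_iff]
  set W := D j0 with hW
  have key : ∀ w ∈ W, ∀ a : Fin n → F, hermForm n F q a a = 0 → hermForm n F q w a ≠ 0 → a ∈ W := by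
    intro w hw a ha hwa
    obtain ⟨g, hg, hgx⟩ := exists_tv hF a c ha hc
    obtain ⟨σ, hs, hσ⟩ := hev hg
    have h1 := perm_eq_one_of_tv hD (g : Matrix (Fin n) (Fin n) F)
      (fun x => c * hermForm n F q x a) a hgx σ hs hσ
    have h2 : (g : Matrix (Fin n) (Fin n) F) *ᵥ w ∈ W := by
      have h3 := hσ j0
      rw [h1, Equiv.Perm.one_apply] at h3
      rw [hW, ← h3]
      exact ⟨w, hw, by simp [Matrix.toLin'_apply]⟩
    rw [hgx] at h2
    have h3 := W.sub_mem h2 hw
    rw [add_sub_cancel_left] at h3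
    have h4 := W.smul_mem (c * hermForm n F q w a)⁻¹ h3
    rwa [smul_smul, inv_mul_cancel₀ (mul_ne_zero hc0 hwa), one_smul] at h4
  have hne : ∀ i, D i ≠ ⊥ := by
    intro i h
    have h1 := hD.finrank_eq i
    rw [h, finrank_bot] at h1
    exact absurd hD.pos (by omega)
  obtain ⟨w, hwW, hw0⟩ := Submodule.exists_mem_ne_zero_of_ne_bot (hne j0)
  obtain ⟨a, ha, hwa⟩ := exists_isotropic_not_perp_vec hF hn hw0
  have haW := key w hwW a ha hwa
  have ha0 : a ≠ 0 := by
    rintro rfl
    exact hwa (hermForm_zero_right hF w)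
  have htop : W = ⊤ := by
    apply eq_top_of_nonperp hF ha0
    intro z hz
    obtain ⟨l, hl⟩ := exists_isotropic_add_smul hF ha hz
    have h5 : hermForm n F q a (z + l • a) ≠ 0 := by
      rw [hermForm_add_right hF, hermForm_smul_right, ha, mul_zero, add_zero]
      intro h6
      exact hz (hermForm_eq_zero_comm hF h6)
    have h6 := key a haW _ hl h5
    have h7 := W.sub_mem h6 (W.smul_mem l haW)
    simpa using h7
  have hdis := hD.indep.pairwiseDisjoint hj
  rw [Function.onFun, ← hW, htop] at hdis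
  exact hne j1 (by simpa using hdis)

end Cfsg.Agent.Lib.Helper47.SURows
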