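import Mathlib
import Cfsg.Agent.Lib.Helper5.SUAsch.Defs2
import Cfsg.Agent.Lib.Helper5.SUAsch.Bridge
import Cfsg.Agent.Lib.Helper5.SURows.Geo

set_option autoImplicit false
set_option linter.unusedSectionVars false
set_option linter.unusedVariables false

/-! # SU rows, piece D1e: `SU_n(q)` (`n ≥ 4`) lies in no subfield subgroup -/

namespace Cfsg.Agent.Lib.Helper47.SURows

open Cfsg Cfsg.Geo Matrix Cfsg.Agent.Lib.Helper5.SUAsch Cfsg.Agent.Lib.Helper5
  Cfsg.Agent.Lib.Helper13 Cfsg.Agent.Lib.Helper94 Cfsg.Agent.Lib.Helper94.U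
  Cfsg.Agent.Lib.Helper5.SURows
open scoped Kronecker MatrixGroups

variable {F : Type*} [Field F] {n q : ℕ}

theorem norm_neg_one_exists [Fintype F] (hF : Fintype.card F = q ^ 2) :
    ∃ l : F, l ^ (q + 1) = -1 := by
  classical
  rcases Nat.even_or_odd q with hq | hq
  · have h2 : ringChar F = 2 := by
      rw [FiniteField.even_card_iff_char_two, hF]
      exact Nat.even_iff.mp (hq.pow_of_ne_zero two_ne_zero)
    have : CharP F 2 := ringChar.of_eq h2
    exact ⟨1, by rw [one_pow, CharTwo.neg_eq]⟩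
  · obtain ⟨r, rfl⟩ := hq
    obtain ⟨g, hg⟩ := IsCyclic.exists_generator (α := Fˣ)
    have hord : orderOf g = (2 * r + 1) ^ 2 - 1 := by
      rw [orderOf_eq_card_of_forall_mem_zpowers hg, Nat.card_eq_fintype_card, Fintype.card_units,
        hF]
    have hr : r ≠ 0 := by
      rintro rfl
      have : 1 < Fintype.card F := Fintype.one_lt_card
      rw [hF] at this
      simp at this
    have e1 : (2 * r + 1) ^ 2 - 1 = (2 * r ^ 2 + 2 * r) + (2 * r ^ 2 + 2 * r) := by
      have : (2 * r + 1) ^ 2 = (2 * r ^ 2 + 2 * r) + (2 * r ^ 2 + 2 * r) + 1 := by ring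
      omega
    set z : Fˣ := g ^ (2 * r ^ 2 + 2 * r) with hz
    have hz2 : z * z = 1 := by
      rw [hz, ← pow_add, ← e1, ← hord, pow_orderOf_eq_one]
    have hz1 : z ≠ 1 := by
      apply pow_ne_one_of_lt_orderOf
      · positivity
      · rw [hord, e1]
        have : 0 < 2 * r ^ 2 + 2 * r := by positivity
        omega
    have hzF : (z : F) = -1 := by
      have h1 : (z : F) * (z : F) = 1 := by rw [← Units.val_mul, hz2, Units.val_one]
      rcases mul_self_eq_one_iff.mp h1 with h | h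
      · exact absurd (Units.ext h) hz1
      · exact h
    refine ⟨((g ^ r : Fˣ) : F), ?_⟩
    rw [← Units.val_pow_eq_pow_val, ← pow_mul, ← hzF, hz]
    congr 2
    ring

/-- by perfectness, `SU` inside a subfield subgroup lies in the conjugate of `GL_n(F₀)` itself -/
theorem le_conj_range [Fintype F] (hF : Fintype.card F = q ^ 2) (hn : 3 ≤ n)
    (h32 : ¬ (n = 3 ∧ q = 2)) (F₀ : Subfield F) (P : GL (Fin n) F)
    (hle : SUg n F q ≤ subfieldSubgroup F₀ P) :
    SUg n F q ≤ ((Matrix.GeneralLinearGroup.map (n := Fin n) (F₀.subtype : F₀ →+* F)).range).map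
      (MulAut.conj P).toMonoidHom := by
  set R := (Matrix.GeneralLinearGroup.map (n := Fin n) (F₀.subtype : F₀ →+* F)).range with hR
  have hsc : ∀ z ∈ scalars (Fin n) F, ∀ g : GL (Fin n) F, z * g = g * z := by
    intro z hz g
    rw [mem_scalars_iff] at hz
    obtain ⟨c, hc⟩ := hz
    apply Units.ext
    rw [Units.val_mul, Units.val_mul, hc]
    simp
  have hdec : ∀ g ∈ SUg n F q, ∃ a ∈ R, ∃ z ∈ scalars (Fin n) F,
      g = (MulAut.conj P).toMonoidHom (a * z) := by
    intro g hg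
    obtain ⟨y, hy, rfl⟩ := hle hg
    obtain ⟨a, ha, z, hz, rfl⟩ := Subgroup.mem_sup_of_normal_right.1 hy
    exact ⟨a, ha, z, hz, rfl⟩
  have hcomm : ⁅SUg n F q, SUg n F q⁆ ≤ R.map (MulAut.conj P).toMonoidHom := by
    rw [Subgroup.commutator_le]
    intro g₁ h₁ g₂ h₂
    obtain ⟨a, ha, z, hz, rfl⟩ := hdec g₁ h₁
    obtain ⟨b, hb, w, hw, rfl⟩ := hdec g₂ h₂
    rw [← map_commutatorElement]
    refine ⟨a * b * a⁻¹ * b⁻¹, R.mul_mem (R.mul_mem (R.mul_mem ha hb) (R.inv_mem ha)) (R.inv_mem hb),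
      ?_⟩
    congr 1
    rw [commutatorElement_def]
    have e1 : a * z * (b * w) = a * b * (z * w) := by
      rw [mul_assoc, ← mul_assoc z b w, hsc z hz b]; group
    have e2 : (a * z)⁻¹ * (b * w)⁻¹ = (z * w)⁻¹ * (a⁻¹ * b⁻¹) := by
      have h3 : b * w * (a * z) = b * a * (z * w) := by
        rw [mul_assoc, ← mul_assoc w a z, hsc w hw a, hsc z hz w]; group
      rw [← _root_.mul_inv_rev, h3, _root_.mul_inv_rev, _root_.mul_inv_rev b a]
    rw [mul_assoc (a * z * (b * w)), e1, e2]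
    group
  rwa [SUg_perfect hF hn h32] at hcomm

/-- D1e -/
theorem su_not_le_subfield [Fintype F] (hF : Fintype.card F = q ^ 2) (hn : 4 ≤ n)
    (F₀ : Subfield F) (hF₀ : F₀ ≠ ⊤) (P : GL (Fin n) F) :
    ¬ SUg n F q ≤ subfieldSubgroup F₀ P := by
  intro hle
  have hle2 := le_conj_range hF (by omega) (by omega) F₀ P hle
  set Q : Matrix (Fin n) (Fin n) F := ((P⁻¹ : GL (Fin n) F) : Matrix (Fin n) (Fin n) F) with hQ
  have hQP : Q * (P : Matrix (Fin n) (Fin n) F) = 1 := by
    rw [hQ, ← Units.val_mul, inv_mul_cancel, Units.val_one]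
  have hPQ : (P : Matrix (Fin n) (Fin n) F) * Q = 1 := by
    rw [hQ, ← Units.val_mul, mul_inv_cancel, Units.val_one]
  -- `SU` stabilises the rational points
  have hstab : ∀ g ∈ SUg n F q, ∀ x : Fin n → F, (∀ i, (Q *ᵥ x) i ∈ F₀) →
      ∀ i, (Q *ᵥ ((g : Matrix (Fin n) (Fin n) F) *ᵥ x)) i ∈ F₀ := by
    intro g hg x hx i
    obtain ⟨y, ⟨m, rfl⟩, rfl⟩ := hle2 hg
    have e : Q *ᵥ ((((MulAut.conj P).toMonoidHom
        (Matrix.GeneralLinearGroup.map (F₀.subtype : F₀ →+* F) m) : GL (Fin n) F) :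
        Matrix (Fin n) (Fin n) F) *ᵥ x) =
        ((Matrix.GeneralLinearGroup.map (F₀.subtype : F₀ →+* F) m : GL (Fin n) F) :
        Matrix (Fin n) (Fin n) F) *ᵥ (Q *ᵥ x) := by
      simp only [MulEquiv.coe_toMonoidHom, MulAut.conj_apply, Units.val_mul]
      rw [Matrix.mulVec_mulVec, Matrix.mulVec_mulVec, ← hQ, ← mul_assoc, ← mul_assoc, hQP, one_mul]
    rw [e]
    simp only [Matrix.mulVec, dotProduct]
    refine F₀.sum_mem fun j _ => F₀.mul_mem ?_ (hx j)
    rw [Matrix.GeneralLinearGroup.map_apply]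
    exact (m.1 i j).2
  obtain ⟨c, hc0, hc⟩ := exists_skew_q hF
  -- every isotropic line is rational
  have hrat : ∀ a : Fin n → F, a ≠ 0 → hermForm n F q a a = 0 →
      ∃ l : F, l ≠ 0 ∧ ∀ i, (Q *ᵥ (l • a)) i ∈ F₀ := by
    intro a ha0 ha
    obtain ⟨g, hg, hgx⟩ := exists_tv hF a c ha hc
    obtain ⟨j, hj⟩ : ∃ j, hermForm n F q ((P : Matrix (Fin n) (Fin n) F) *ᵥ Pi.single j 1) a ≠ 0 := by
      by_contra hcon
      push Not at hcon
      obtain ⟨z, hz⟩ := exists_hermForm_ne_zero hF ha0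
      apply hz
      have h0 : (hermL n q a).comp (Matrix.toLin' (P : Matrix (Fin n) (Fin n) F)) = 0 := by
        apply LinearMap.pi_ext'
        intro j
        apply LinearMap.ext_ring
        simpa using hcon j
      have h1 := congrArg (fun f : (Fin n → F) →ₗ[F] F => f (Q *ᵥ z)) h0
      simpa [Matrix.mulVec_mulVec, hPQ] using h1
    refine ⟨c * hermForm n F q ((P : Matrix (Fin n) (Fin n) F) *ᵥ Pi.single j 1) a,
      mul_ne_zero hc0 hj, fun i => ?_⟩
    have hb : ∀ i, (Q *ᵥ ((P : Matrix (Fin n) (Fin n) F) *ᵥ Pi.single j 1)) i ∈ F₀ := by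
      intro i
      rw [Matrix.mulVec_mulVec, hQP, Matrix.one_mulVec, Pi.single_apply]
      split_ifs
      · exact F₀.one_mem
      · exact F₀.zero_mem
    have h1 := hstab g hg _ hb i
    rw [hgx, Matrix.mulVec_add, Pi.add_apply] at h1
    have h2 := F₀.sub_mem h1 (hb i)
    rwa [add_sub_cancel_left] at h2
  obtain ⟨ε, hε⟩ := norm_neg_one_exists hF
  obtain ⟨θ, hθ⟩ : ∃ t, t ∉ F₀ := by
    by_contra h
    push Not at h
    exact hF₀ (eq_top_iff.2 fun x _ => h x)
  have hq0 : q ≠ 0 := by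
    rintro rfl
    have : 0 < Fintype.card F := Fintype.card_pos
    rw [hF] at this
    simp at this
  let i0 : Fin n := ⟨0, by omega⟩
  let i1 : Fin n := ⟨1, by omega⟩
  let i2 : Fin n := ⟨2, by omega⟩
  let i3 : Fin n := ⟨3, by omega⟩
  have h01 : i0 ≠ i1 := by simp [i0, i1, Fin.ext_iff]
  have h02 : i0 ≠ i2 := by simp [i0, i2, Fin.ext_iff]
  have h03 : i0 ≠ i3 := by simp [i0, i3, Fin.ext_iff]
  have h12 : i1 ≠ i2 := by simp [i1, i2, Fin.ext_iff]
  have h13 : i1 ≠ i3 := by simp [i1, i3, Fin.ext_iff]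
  have h23 : i2 ≠ i3 := by simp [i2, i3, Fin.ext_iff]
  set a : Fin n → F := Pi.single i0 1 + ε • Pi.single i1 1 with ha
  set d : Fin n → F := Pi.single i2 1 + ε • Pi.single i3 1 with hd
  have hHa : ∀ v, hermForm n F q a v = (v i0) ^ q + ε * (v i1) ^ q := by
    intro v
    rw [ha, hermForm_add_left, hermForm_smul_left, hermForm_single_left, hermForm_single_left]
  have hHd : ∀ v, hermForm n F q d v = (v i2) ^ q + ε * (v i3) ^ q := by
    intro v
    rw [hd, hermForm_add_left, hermForm_smul_left, hermForm_single_left, hermForm_single_left]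
  have a0 : a i0 = 1 := by simp [ha, h01]
  have a1 : a i1 = ε := by simp [ha, h01.symm]
  have a2 : a i2 = 0 := by simp [ha, h02.symm, h12.symm]
  have a3 : a i3 = 0 := by simp [ha, h03.symm, h13.symm]
  have d0 : d i0 = 0 := by simp [hd, h02, h03]
  have d1 : d i1 = 0 := by simp [hd, h12, h13]
  have d2 : d i2 = 1 := by simp [hd, h23]
  have d3 : d i3 = ε := by simp [hd, h23.symm]
  have haa : hermForm n F q a a = 0 := by
    rw [hHa, a0, a1, one_pow, ← pow_succ', hε]; ring
  have had : hermForm n F q a d = 0 := by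
    rw [hHa, d0, d1, zero_pow hq0]; ring
  have hda : hermForm n F q d a = 0 := by
    rw [hHd, a2, a3, zero_pow hq0]; ring
  have hdd : hermForm n F q d d = 0 := by
    rw [hHd, d2, d3, one_pow, ← pow_succ', hε]; ring
  have hiso : ∀ x y : F, hermForm n F q (x • a + y • d) (x • a + y • d) = 0 := by
    intro x y
    simp only [hermForm_add_left, hermForm_add_right hF, hermForm_smul_left, hermForm_smul_right,
      haa, had, hda, hdd, mul_zero, add_zero]
  have ha0 : a ≠ 0 := by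
    intro h
    rw [h] at a0
    simp at a0
  have hd0 : d ≠ 0 := by
    intro h
    rw [h] at d2
    simp at d2
  obtain ⟨l, hl0, hl⟩ := hrat a ha0 haa
  obtain ⟨m, hm0, hm⟩ := hrat d hd0 hdd
  have hb0 : l • a + (θ * m) • d ≠ 0 := by
    intro h
    have := congrFun h i0
    simp only [Pi.add_apply, Pi.smul_apply, a0, d0, smul_eq_mul, mul_one, mul_zero, add_zero,
      Pi.zero_apply] at this
    exact hl0 this
  obtain ⟨ν, hν0, hν⟩ := hrat _ hb0 (hiso l (θ * m))
  set u := Q *ᵥ (l • a) with hu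
  set w := Q *ᵥ (m • d) with hw
  have hPu : (P : Matrix (Fin n) (Fin n) F) *ᵥ u = l • a := by
    rw [hu, Matrix.mulVec_mulVec, hPQ, Matrix.one_mulVec]
  have hPw : (P : Matrix (Fin n) (Fin n) F) *ᵥ w = m • d := by
    rw [hw, Matrix.mulVec_mulVec, hPQ, Matrix.one_mulVec]
  have hX : ∀ i, ν * u i + ν * θ * w i ∈ F₀ := by
    intro i
    have h1 := hν i
    have e : Q *ᵥ (ν • (l • a + (θ * m) • d)) = ν • u + (ν * θ) • w := by
      rw [hu, hw, Matrix.mulVec_smul, Matrix.mulVec_add, mul_smul θ m d, Matrix.mulVec_smul Q θ,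
        smul_add, smul_smul ν θ]
    rw [e] at h1
    simpa using h1
  obtain ⟨i, j, hij⟩ : ∃ i j, u i * w j - u j * w i ≠ 0 := by
    by_contra hcon
    push Not at hcon
    have hu0 : u ≠ 0 := by
      intro h
      rw [h, Matrix.mulVec_zero] at hPu
      have := congrFun hPu i0
      simp only [Pi.smul_apply, a0, smul_eq_mul, mul_one, Pi.zero_apply] at this
      exact hl0 this.symm
    obtain ⟨i, hi⟩ := Function.ne_iff.1 hu0
    have hi' : u i ≠ 0 := hi
    have hwu : w = (w i / u i) • u := by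
      funext j
      have := hcon i j
      rw [Pi.smul_apply, smul_eq_mul]
      field_simp
      linear_combination this
    rw [hwu, Matrix.mulVec_smul, hPu] at hPw
    have := congrFun hPw i2
    simp only [Pi.smul_apply, a2, d2, smul_eq_mul, mul_one, mul_zero] at this
    exact hm0 this.symm
  have hD : u i * w j - u j * w i ∈ F₀ :=
    F₀.sub_mem (F₀.mul_mem (hl i) (hm j)) (F₀.mul_mem (hl j) (hm i))
  have hνF : ν ∈ F₀ := by
    have h1 : (ν * u i + ν * θ * w i) * w j - (ν * u j + ν * θ * w j) * w i ∈ F₀ :=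
      F₀.sub_mem (F₀.mul_mem (hX i) (hm j)) (F₀.mul_mem (hX j) (hm i))
    have h2 : ν = ((ν * u i + ν * θ * w i) * w j - (ν * u j + ν * θ * w j) * w i) /
        (u i * w j - u j * w i) := by
      rw [eq_div_iff hij]
      ring
    rw [h2]
    exact F₀.div_mem h1 hD
  have hνθ : ν * θ ∈ F₀ := by
    have h1 : u i * (ν * u j + ν * θ * w j) - u j * (ν * u i + ν * θ * w i) ∈ F₀ :=
      F₀.sub_mem (F₀.mul_mem (hl i) (hX j)) (F₀.mul_mem (hl j) (hX i))
    have h2 : ν * θ = (u i * (ν * u j + ν * θ * w j) - u j * (ν * u i + ν * θ * w i)) /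
        (u i * w j - u j * w i) := by
      rw [eq_div_iff hij]
      ring
    rw [h2]
    exact F₀.div_mem h1 hD
  apply hθ
  have h3 : θ = ν * θ / ν := by field_simp
  rw [h3]
  exact F₀.div_mem hνθ hνF

end Cfsg.Agent.Lib.Helper47.SURows
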